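import Cfsg.Agent.Lib.CosetCert.D.HeN.Tbl
import Cfsg.Agent.Lib.CosetCert.D.HeN.St4.CT

namespace Cfsg.Agent.Lib.CosetCert.D.HeN.St4.Tab

open Cfsg.Agent.Lib.CosetCert Cfsg.Agent.Lib.TC.Core Cfsg.Agent.Lib.TC.Enc Cfsg.Agent.Lib.TC.Pres Cfsg.Agent.Lib.TC.Perm Cfsg.Agent.Lib.TC.Main

set_option maxRecDepth 100000

open Cfsg.Agent.Lib.CosetCert.D.HeN.Tbl

/-- The chunks. -/
noncomputable def ctree : Tr Nat := Cfsg.Agent.Lib.CosetCert.D.HeN.St4.CT.tree

/-- The relator rotations. -/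
noncomputable def rotT : Tr (List Nat) := (Tr.node (Tr.leaf []) (Tr.leaf [0,0]))

/-- The witnesses of the rotations. -/
noncomputable def witT : Tr (Nat × Nat × Bool) := (Tr.node (Tr.leaf (0,0,false)) (Tr.leaf (0,0,false)))

/-- The subgroup rotations. -/
noncomputable def srotT : Tr (List Nat × Nat × List Nat) := (Tr.leaf ([],0,[]))

/-- The certificate. -/
noncomputable def cert : Cert :=
  mkCert 1 2 2 1 2 2 10 1023 10 4 4 8 15 15 2 1 3 1 3 2 1 ctree.get rotT.get srotT.get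

/-- The relators. -/
def rels : List (List Nat) :=
  []

/-- The words of the subgroup. -/
def subs : List (List Nat) :=
  []

end Cfsg.Agent.Lib.CosetCert.D.HeN.St4.Tab
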